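import Cfsg.Agent.Lib.Singular.Basic

/-! # Two conjugate large extraspecial subgroups with orthogonal centres -/

set_option autoImplicit false

namespace Cfsg.Agent.Lib.LargeExtra
open Cfsg Cfsg.Agent.Lib.Singular

variable {G : Type*} [Group G]

/-- An element inducing on a good subgroup the identity modulo the centre lies in it. -/
theorem mem_of_inner [Finite G] {Q : Subgroup G} {z : G} (hQ : Good Q z) {a : G} (haz : a * z = z * a)
    (hcq : ∀ c, (∀ q ∈ Q, c * q = q * c) → c ∈ Q)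
    (ha : ∀ q ∈ Q, a * q * a⁻¹ = q ∨ a * q * a⁻¹ = z * q) : a ∈ Q := by
  let K : Subgroup G :=
    { carrier := {q | q ∈ Q ∧ a * q * a⁻¹ = q}
      one_mem' := ⟨one_mem _, by group⟩
      mul_mem' := fun {u v} hu hv => ⟨mul_mem hu.1 hv.1, by
        rw [show a * (u * v) * a⁻¹ = (a * u * a⁻¹) * (a * v * a⁻¹) by group, hu.2, hv.2]⟩
      inv_mem' := fun {u} hu => ⟨inv_mem hu.1, by
        rw [show a * u⁻¹ * a⁻¹ = (a * u * a⁻¹)⁻¹ by group, hu.2]⟩ }
  by_cases hall : ∀ q ∈ Q, a * q * a⁻¹ = q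
  · exact hcq a fun q hq => mul_inv_eq_iff_eq_mul.1 (hall q hq)
  push Not at hall
  obtain ⟨x, hx, hxa⟩ := hall
  have hzK : z ∈ K := ⟨hQ.mem, mul_inv_eq_iff_eq_mul.2 haz⟩
  obtain ⟨q, hq, hqK, hqx⟩ := exists_separator hQ (V := K) (fun u hu => hu.1) hzK hx (fun h => hxa h.2)
  have hax : a * x * a⁻¹ = z * x := (ha x hx).resolve_left hxa
  have hzz : ∀ u, z * (z * u) = u := fun u => by rw [← mul_assoc, hQ.sq, one_mul]
  have hcx : (q⁻¹ * a) * x = x * (q⁻¹ * a) := by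
    calc (q⁻¹ * a) * x = q⁻¹ * (a * x * a⁻¹) * a := by group
      _ = q⁻¹ * (q * x * q⁻¹) * a := by rw [hax, hqx]
      _ = _ := by group
  have hcK : ∀ u ∈ K, (q⁻¹ * a) * u = u * (q⁻¹ * a) := by
    intro u hu
    calc (q⁻¹ * a) * u = q⁻¹ * (a * u * a⁻¹) * a := by group
      _ = q⁻¹ * u * a := by rw [hu.2]
      _ = _ := by rw [← mul_assoc, (Commute.inv_left (show Commute q u from hqK u hu)).eq]
  have key : ∀ u ∈ Q, (q⁻¹ * a) * u = u * (q⁻¹ * a) := by
    intro u hu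
    rcases ha u hu with h | h
    · exact hcK u ⟨hu, h⟩
    · have hK : x⁻¹ * u ∈ K := by
        refine ⟨mul_mem (inv_mem hx) hu, ?_⟩
        rw [show a * (x⁻¹ * u) * a⁻¹ = (a * x * a⁻¹)⁻¹ * (a * u * a⁻¹) by group, hax, h]
        group
      have := (Commute.mul_right (show Commute (q⁻¹ * a) x from hcx) (hcK _ hK)).eq
      simpa using this
  have := mul_mem hq (hcq _ key)
  simpa using this

/-- The data: `Qf` a conjugation equivariant assignment, `z`, `y` orthogonal. -/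
structure Pair (Qf : G → Subgroup G) (z y : G) : Prop where
  conj : ∀ g x a, a ∈ Qf x → g * a * g⁻¹ ∈ Qf (g * x * g⁻¹)
  goodz : Good (Qf z) z
  goody : Good (Qf y) y
  ne : y ≠ z
  memy : y ∈ Qf z
  memz : z ∈ Qf y
  pz : IsPGroup 2 ↥(Qf z)
  py : IsPGroup 2 ↥(Qf y)
  cqz : ∀ c, (∀ q ∈ Qf z, c * q = q * c) → c ∈ Qf z
  cqy : ∀ c, (∀ q ∈ Qf y, c * q = q * c) → c ∈ Qf y

namespace Pair

variable {Qf : G → Subgroup G} {z y : G}

/-- The centralizer of `y` in the subgroup attached to `z`. -/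
abbrev B (Qf : G → Subgroup G) (z y : G) : Subgroup G := Qf z ⊓ Subgroup.centralizer ({y} : Set G)

/-- The intersection. -/
abbrev E (Qf : G → Subgroup G) (z y : G) : Subgroup G := Qf z ⊓ Qf y

/-- The radical. -/
abbrev R (Qf : G → Subgroup G) (z y : G) : Subgroup G := B Qf y z ⊔ B Qf z y

variable (h : Pair Qf z y)
include h

theorem symm : Pair Qf y z :=
  ⟨h.conj, h.goody, h.goodz, h.ne.symm, h.memz, h.memy, h.py, h.pz, h.cqy, h.cqz⟩

theorem mem_B {q : G} : q ∈ B Qf z y ↔ q ∈ Qf z ∧ q * y = y * q := by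
  rw [Subgroup.mem_inf, Subgroup.mem_centralizer_singleton_iff]

theorem zy : z * y = y * z := (h.goodz.le y h.memy).symm

theorem mem_V {x : G} : x ∈ Subgroup.closure ({z, y} : Set G) ↔ x = 1 ∨ x = z ∨ x = y ∨ x = z * y := by
  constructor
  · intro hx
    have hy2 := h.goody.sq
    have hz2 := h.goodz.sq
    have hzy := h.zy
    have a1 : ∀ u, z * (z * u) = u := fun u => by rw [← mul_assoc, hz2, one_mul]
    have a2 : ∀ u, y * (y * u) = u := fun u => by rw [← mul_assoc, hy2, one_mul]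
    have a3 : ∀ u, y * (z * u) = z * (y * u) := fun u => by rw [← mul_assoc, ← hzy, mul_assoc]
    induction hx using Subgroup.closure_induction with
    | mem u hu => rcases hu with rfl | rfl <;> simp
    | one => simp
    | mul u v _ _ iu iv =>
      rcases iu with rfl | rfl | rfl | rfl <;> rcases iv with rfl | rfl | rfl | rfl <;>
        simp [mul_assoc, a1, a2, a3, hz2, hy2, ← hzy]
    | inv u _ iu =>
      rcases iu with rfl | rfl | rfl | rfl
      · simp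
      · simp [inv_eq_of_mul_eq_one_right hz2]
      · simp [inv_eq_of_mul_eq_one_right hy2]
      · simp [inv_eq_of_mul_eq_one_right hz2, inv_eq_of_mul_eq_one_right hy2, ← hzy]
  · rintro (rfl | rfl | rfl | rfl)
    · exact one_mem _
    · exact Subgroup.subset_closure (by simp)
    · exact Subgroup.subset_closure (by simp)
    · exact mul_mem (Subgroup.subset_closure (by simp)) (Subgroup.subset_closure (by simp))

theorem exists_q0 : ∃ q ∈ Qf z, q * y * q⁻¹ = z * y :=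
  exists_mover h.goodz h.memy h.goody.ne h.ne

theorem E_le_B : E Qf z y ≤ B Qf z y := fun _ he => h.mem_B.2 ⟨he.1, h.goody.le _ he.2⟩

theorem z_mem_E : z ∈ E Qf z y := ⟨h.goodz.mem, h.memz⟩

theorem y_mem_E : y ∈ E Qf z y := ⟨h.memy, h.goody.mem⟩

theorem E_comm {e f : G} (he : e ∈ E Qf z y) (hf : f ∈ E Qf z y) : e * f = f * e := by
  rcases h.goodz.comm e he.1 f hf.1 with a | a
  · exact (comm_iff _ _).1 a
  · rcases h.goody.comm e he.2 f hf.2 with b | b
    · exact (comm_iff _ _).1 b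
    · exact absurd (b.symm.trans a) h.ne

theorem E_sq {e : G} (he : e ∈ E Qf z y) : e * e = 1 := by
  rcases h.goodz.sqr e he.1 with a | a
  · exact a
  · rcases h.goody.sqr e he.2 with b | b
    · exact b
    · exact absurd (b.symm.trans a) h.ne

/-- `Qf z` normalizes the intersection. -/
theorem E_conj {q e : G} (hq : q ∈ Qf z) (he : e ∈ E Qf z y) : q * e * q⁻¹ ∈ E Qf z y := by
  rcases h.goodz.comm q hq e he.1 with a | a
  · rw [mul_inv_eq_iff_eq_mul.2 ((comm_iff _ _).1 a)]; exact he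
  · rw [show q * e * q⁻¹ = (q * e * q⁻¹ * e⁻¹) * e by group, a]; exact mul_mem h.z_mem_E he

/-- The three intersections coincide. -/
theorem E_eq {e : G} (he : e ∈ E Qf z y) : e ∈ Qf (z * y) := by
  obtain ⟨q, hq, hqy⟩ := h.exists_q0
  have h1 : q⁻¹ * e * q⁻¹⁻¹ ∈ E Qf z y := h.E_conj (inv_mem hq) he
  have := h.conj q y _ h1.2
  rw [hqy] at this
  simpa [mul_assoc] using this

theorem mem_Qf_z {a : G} (ha : a ∈ Qf y) (ha' : a ∈ Qf (z * y)) : a ∈ Qf z := by
  obtain ⟨p, hp, hpz⟩ := h.symm.exists_q0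
  have hpy : p * y * p⁻¹ = y := mul_inv_eq_iff_eq_mul.2 (h.goody.le p hp)
  have h1 : p⁻¹ * a * p ∈ Qf z := by
    have h2 := h.conj p⁻¹ (z * y) a ha'
    rwa [inv_inv, show p⁻¹ * (z * y) * p = z by rw [h.zy, ← hpz]; group] at h2
  have h1' : p⁻¹ * a * p ∈ Qf y := mul_mem (mul_mem (inv_mem hp) ha) hp
  have h3 : p⁻¹ * a * p ∈ E Qf z y := ⟨h1, h1'⟩
  have h4 := h.symm.E_conj hp ⟨h3.2, h3.1⟩
  have : p * (p⁻¹ * a * p) * p⁻¹ = a := by group
  rw [this] at h4
  exact h4.2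

/-- The key lemma. -/
theorem mem_E_of_inner [Finite G] {a : G} (ha : a ∈ B Qf y z)
    (hb : ∀ b ∈ B Qf z y, a * b * a⁻¹ = b ∨ a * b * a⁻¹ = z * b) : a ∈ E Qf z y := by
  obtain ⟨hap, haz⟩ := h.symm.mem_B.1 ha
  have hay := h.goody.le a hap
  obtain ⟨q, hq, hqy⟩ := h.exists_q0
  obtain ⟨d, hd⟩ : ∃ d, d = q⁻¹ * (a * q * a⁻¹) := ⟨_, rfl⟩
  have hdQ : d ∈ Qf z := hd.symm ▸ mul_mem (inv_mem hq) (h.goodz.norm a haz q hq)
  have hzc : ∀ u ∈ Qf z, ∀ v : G, u * (z * v) = z * (u * v) := fun u hu v => by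
    rw [← mul_assoc, h.goodz.le u hu, mul_assoc]
  have hdB : ∀ b ∈ Qf z, b * y = y * b → d * b = b * d := by
    intro b hbQ hby
    have hbB := h.mem_B.2 ⟨hbQ, hby⟩
    have hqd : q * d = a * q * a⁻¹ := by rw [hd]; group
    have hzz : ∀ u, z * (z * u) = u := fun u => by rw [← mul_assoc, h.goodz.sq, one_mul]
    have hmain : q * b * q⁻¹ * b⁻¹ = (q * d) * b * (q * d)⁻¹ * b⁻¹ := by
      have hcen : a * (q * b * q⁻¹ * b⁻¹) * a⁻¹ = q * b * q⁻¹ * b⁻¹ := by
        rcases h.goodz.comm q hq b hbQ with e | e <;> rw [e]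
        · group
        · exact mul_inv_eq_iff_eq_mul.2 haz
      rw [← hcen, hqd]
      have hinv : (z * b)⁻¹ = b⁻¹ * z := by rw [mul_inv_rev, inv_eq_of_mul_eq_one_right h.goodz.sq]
      rcases hb b hbB with e | e
      · calc a * (q * b * q⁻¹ * b⁻¹) * a⁻¹ = (a * q * a⁻¹) * (a * b * a⁻¹) * (a * q * a⁻¹)⁻¹ * (a * b * a⁻¹)⁻¹ := by group
          _ = _ := by rw [e]
      · calc a * (q * b * q⁻¹ * b⁻¹) * a⁻¹ = (a * q * a⁻¹) * (a * b * a⁻¹) * (a * q * a⁻¹)⁻¹ * (a * b * a⁻¹)⁻¹ := by group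
          _ = ((a * q * a⁻¹) * z) * b * (a * q * a⁻¹)⁻¹ * (b⁻¹ * z) := by rw [e, hinv]; group
          _ = z * (((a * q * a⁻¹) * b * (a * q * a⁻¹)⁻¹ * b⁻¹) * z) := by
            rw [h.goodz.le _ (h.goodz.norm a haz q hq)]; group
          _ = _ := by
            have hm : (a * q * a⁻¹) * b * (a * q * a⁻¹)⁻¹ * b⁻¹ ∈ Qf z :=
              mul_mem (mul_mem (mul_mem (h.goodz.norm a haz q hq) hbQ) (inv_mem (h.goodz.norm a haz q hq))) (inv_mem hbQ)
            rw [h.goodz.le _ hm, hzz]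
    have : d * b * d⁻¹ = b := by
      calc d * b * d⁻¹ = q⁻¹ * ((q * d) * b * (q * d)⁻¹ * b⁻¹) * b * q := by group
        _ = q⁻¹ * (q * b * q⁻¹ * b⁻¹) * b * q := by rw [← hmain]
        _ = b := by group
    exact mul_inv_eq_iff_eq_mul.1 this
  have hdV : d ∈ Subgroup.closure (insert z ({y} : Set G)) :=
    closure_of_centralizers h.goodz (Set.finite_singleton y) (Set.singleton_subset_iff.2 h.memy) hdQ
      fun u hu huy => (hdB u hu (huy y rfl)).symm
  have hqd : a * q * a⁻¹ = q * d := by rw [hd]; group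
  have haE : a ∈ Qf z → a ∈ E Qf z y := fun h' => ⟨h', hap⟩
  have inner : (d = 1 ∨ d = z) → a ∈ E Qf z y := by
    intro hd'
    refine haE (mem_of_inner h.goodz haz h.cqz fun u hu => ?_)
    rcases h.goodz.comm u hu y h.memy with e | e
    · exact hb u (h.mem_B.2 ⟨hu, (comm_iff _ _).1 e⟩)
    · have hu' : (q⁻¹ * u) * y = y * (q⁻¹ * u) := by
        have a1 : u * y = z * y * u := by rw [← e]; group
        calc (q⁻¹ * u) * y = q⁻¹ * (z * y * u) := by rw [mul_assoc, a1]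
          _ = q⁻¹ * (q * y * q⁻¹) * u := by rw [hqy]; group
          _ = _ := by group
      have e0 : a * u * a⁻¹ = (q * d) * (a * (q⁻¹ * u) * a⁻¹) := by rw [← hqd]; group
      rw [e0]
      rcases hb _ (h.mem_B.2 ⟨mul_mem (inv_mem hq) hu, hu'⟩) with e' | e' <;> rw [e'] <;>
        rcases hd' with hd' | hd' <;> rw [hd']
      · left; simp
      · right; rw [h.goodz.le q hq]; group
      · right; rw [mul_one, hzc q hq]; group
      · left
        rw [mul_assoc, ← mul_assoc z z, h.goodz.sq, one_mul, ← mul_assoc, mul_inv_cancel, one_mul]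
  rcases h.mem_V.1 hdV with h1 | h1 | h1 | h1
  · exact inner (Or.inl h1)
  · exact inner (Or.inr h1)
  all_goals
    have he : a * q * a⁻¹ * q⁻¹ ∈ E Qf z y := by
      rw [hqd]
      exact h.E_conj hq (by rw [h1]; first | exact h.y_mem_E | exact mul_mem h.z_mem_E h.y_mem_E)
    have hq1 : q * a⁻¹ * q⁻¹ ∈ Qf (z * y) := hqy ▸ h.conj q y _ (inv_mem hap)
    have hq2 : q * a⁻¹ * q⁻¹ ∈ Qf y := by
      rw [show q * a⁻¹ * q⁻¹ = a⁻¹ * (a * q * a⁻¹ * q⁻¹) by group]
      exact mul_mem (inv_mem hap) he.2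
    have h2 := mul_mem (mul_mem (inv_mem hq) (h.mem_Qf_z hq2 hq1)) hq
    rw [show q⁻¹ * (q * a⁻¹ * q⁻¹) * q = a⁻¹ by group] at h2
    exact haE (inv_mem_iff.1 h2)

/-- The radical is a product. -/
theorem B_conj {a b : G} (ha : a ∈ B Qf y z) (hb : b ∈ B Qf z y) : a * b * a⁻¹ ∈ B Qf z y := by
  obtain ⟨hap, haz⟩ := h.symm.mem_B.1 ha
  obtain ⟨hbq, hby⟩ := h.mem_B.1 hb
  refine h.mem_B.2 ⟨h.goodz.norm a haz b hbq, ?_⟩
  exact (Commute.mul_left (Commute.mul_left (show Commute a y from h.goody.le a hap) hby)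
    (Commute.inv_left (show Commute a y from h.goody.le a hap))).eq

theorem A_le_normalizer : B Qf y z ≤ Subgroup.normalizer (B Qf z y : Set G) := by
  intro a ha
  rw [Subgroup.mem_normalizer_iff]
  intro b
  refine ⟨fun hb => h.B_conj ha hb, fun hb => ?_⟩
  have := h.B_conj (inv_mem ha) hb
  simpa [mul_assoc] using this

theorem mem_R {x : G} (hx : x ∈ R Qf z y) : ∃ a ∈ B Qf y z, ∃ b ∈ B Qf z y, x = a * b := by
  have hx' : x ∈ (↑(B Qf y z ⊔ B Qf z y) : Set G) := hx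
  rw [Subgroup.coe_mul_of_left_le_normalizer_right _ _ h.A_le_normalizer, Set.mem_mul] at hx'
  obtain ⟨a, ha, b, hb, rfl⟩ := hx'
  exact ⟨a, ha, b, hb, rfl⟩

theorem B_commute_E {a b : G} (ha : a ∈ B Qf y z) (hb : b ∈ B Qf z y) : a * b * a⁻¹ * b⁻¹ ∈ E Qf z y := by
  obtain ⟨hap, haz⟩ := h.symm.mem_B.1 ha
  obtain ⟨hbq, hby⟩ := h.mem_B.1 hb
  have h3 : a * b * a⁻¹ * b⁻¹ ∈ Qf z := mul_mem (h.goodz.norm a haz b hbq) (inv_mem hbq)
  refine ⟨h3, ?_⟩
  rw [show a * b * a⁻¹ * b⁻¹ = a * (b * a⁻¹ * b⁻¹) by group]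
  have hap' : a⁻¹ ∈ Qf y := inv_mem hap
  have h4 : a * (b * a⁻¹ * b⁻¹) ∈ Qf y := mul_mem hap (h.goody.norm b hby _ hap')
  exact h4

theorem R_conj_E {x e : G} (hx : x ∈ R Qf z y) (he : e ∈ E Qf z y) : x * e * x⁻¹ ∈ E Qf z y := by
  obtain ⟨a, ha, b, hb, rfl⟩ := h.mem_R hx
  have h1 : b * e * b⁻¹ ∈ E Qf z y := h.E_conj (h.mem_B.1 hb).1 he
  have h2 := h.symm.E_conj (h.symm.mem_B.1 ha).1 ⟨h1.2, h1.1⟩
  rw [show a * b * e * (a * b)⁻¹ = a * (b * e * b⁻¹) * a⁻¹ by group]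
  exact ⟨h2.2, h2.1⟩

/-- Commutators in the radical lie in the intersection. -/
theorem R_comm {x u : G} (hx : x ∈ R Qf z y) (hu : u ∈ R Qf z y) : x * u * x⁻¹ * u⁻¹ ∈ E Qf z y := by
  have gen : ∀ t ∈ R Qf z y, ∀ v ∈ R Qf z y, ∀ w ∈ R Qf z y, t * v * t⁻¹ * v⁻¹ ∈ E Qf z y → t * w * t⁻¹ * w⁻¹ ∈ E Qf z y →
      t * (v * w) * t⁻¹ * (v * w)⁻¹ ∈ E Qf z y := by
    intro t _ v hv w _ h1 h2
    rw [show t * (v * w) * t⁻¹ * (v * w)⁻¹ = (t * v * t⁻¹ * v⁻¹) * (v * (t * w * t⁻¹ * w⁻¹) * v⁻¹) by group]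
    exact mul_mem h1 (h.R_conj_E hv h2)
  have hA : B Qf y z ≤ R Qf z y := le_sup_left
  have hB : B Qf z y ≤ R Qf z y := le_sup_right
  have AA : ∀ a ∈ B Qf y z, ∀ a' ∈ B Qf y z, a * a' * a⁻¹ * a'⁻¹ ∈ E Qf z y := fun a ha a' ha' => by
    rcases h.goody.comm a (h.symm.mem_B.1 ha).1 a' (h.symm.mem_B.1 ha').1 with e | e <;> rw [e]
    · exact one_mem _
    · exact h.y_mem_E
  have BB : ∀ a ∈ B Qf z y, ∀ a' ∈ B Qf z y, a * a' * a⁻¹ * a'⁻¹ ∈ E Qf z y := fun a ha a' ha' => by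
    rcases h.goodz.comm a (h.mem_B.1 ha).1 a' (h.mem_B.1 ha').1 with e | e <;> rw [e]
    · exact one_mem _
    · exact h.z_mem_E
  have AB : ∀ a ∈ B Qf y z, ∀ b ∈ B Qf z y, b * a * b⁻¹ * a⁻¹ ∈ E Qf z y := fun a ha b hb => by
    have := inv_mem (h.B_commute_E ha hb)
    rwa [show b * a * b⁻¹ * a⁻¹ = (a * b * a⁻¹ * b⁻¹)⁻¹ by group]
  obtain ⟨a', ha', b', hb', rfl⟩ := h.mem_R hu
  have key : ∀ t ∈ R Qf z y, ((∀ a ∈ B Qf y z, t * a * t⁻¹ * a⁻¹ ∈ E Qf z y) ∧ ∀ b ∈ B Qf z y, t * b * t⁻¹ * b⁻¹ ∈ E Qf z y) := by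
    intro t ht
    obtain ⟨a, ha, b, hb, rfl⟩ := h.mem_R ht
    refine ⟨fun c hc => ?_, fun c hc => ?_⟩ <;>
      rw [show a * b * c * (a * b)⁻¹ * c⁻¹ = (a * (b * c * b⁻¹ * c⁻¹) * a⁻¹) * (a * c * a⁻¹ * c⁻¹) by group]
    · exact mul_mem (h.R_conj_E (hA ha) (AB c hc b hb)) (AA a ha c hc)
    · exact mul_mem (h.R_conj_E (hA ha) (BB b hb c hc)) (h.B_commute_E ha hc)
  exact gen x hx a' (hA ha') b' (hB hb') ((key x hx).1 a' ha') ((key x hx).2 b' hb')

theorem R_sq {x : G} (hx : x ∈ R Qf z y) : x * x ∈ E Qf z y := by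
  obtain ⟨a, ha, b, hb, rfl⟩ := h.mem_R hx
  rw [show a * b * (a * b) = (a * (b * a * b⁻¹ * a⁻¹) * a⁻¹) * (a * a) * (b * b) by group]
  refine mul_mem (mul_mem (h.R_conj_E (Subgroup.mem_sup_left ha) (h.R_comm (Subgroup.mem_sup_right hb) (Subgroup.mem_sup_left ha))) ?_) ?_
  · rcases h.goody.sqr a (h.symm.mem_B.1 ha).1 with e | e <;> rw [e]
    exacts [one_mem _, h.y_mem_E]
  · rcases h.goodz.sqr b (h.mem_B.1 hb).1 with e | e <;> rw [e]
    exacts [one_mem _, h.z_mem_E]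

theorem V_le_R : Subgroup.closure ({z, y} : Set G) ≤ R Qf z y :=
  (Subgroup.closure_le _).2 fun _ hx => Subgroup.mem_sup_right (h.E_le_B (by
    rcases hx with rfl | rfl
    exacts [h.z_mem_E, h.y_mem_E]))

theorem R_cent_V {x v : G} (hx : x ∈ R Qf z y) (hv : v ∈ Subgroup.closure ({z, y} : Set G)) : x * v = v * x := by
  obtain ⟨a, ha, b, hb, rfl⟩ := h.mem_R hx
  obtain ⟨hap, haz⟩ := h.symm.mem_B.1 ha
  obtain ⟨hbq, hby⟩ := h.mem_B.1 hb
  have c1 : Commute (a * b) z := Commute.mul_left haz (h.goodz.le b hbq)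
  have c2 : Commute (a * b) y := Commute.mul_left (h.goody.le a hap) hby
  rcases h.mem_V.1 hv with rfl | rfl | rfl | rfl
  exacts [by simp, c1.eq, c2.eq, (c1.mul_right c2).eq]

/-- The centre of the radical. -/
theorem center_R [Finite G] {c : G} (hc : c ∈ R Qf z y) (hcen : ∀ x ∈ R Qf z y, x * c = c * x) :
    c ∈ Subgroup.closure ({z, y} : Set G) := by
  obtain ⟨a, ha, b, hb, rfl⟩ := h.mem_R hc
  have haE : a ∈ E Qf z y := by
    refine h.mem_E_of_inner ha fun u hu => ?_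
    have e1 := hcen u (Subgroup.mem_sup_right hu)
    have e2 : a * (b * u * b⁻¹) * a⁻¹ = u := by
      calc a * (b * u * b⁻¹) * a⁻¹ = (a * b) * u * (a * b)⁻¹ := by group
        _ = u := by rw [← e1]; group
    have hzu : a * z * a⁻¹ = z := mul_inv_eq_iff_eq_mul.2 (h.symm.mem_B.1 ha).2
    rcases h.goodz.comm b (h.mem_B.1 hb).1 u (h.mem_B.1 hu).1 with e | e
    · rw [mul_inv_eq_iff_eq_mul.2 ((comm_iff _ _).1 e)] at e2
      exact Or.inl e2
    · rw [show b * u * b⁻¹ = (b * u * b⁻¹ * u⁻¹) * u by group, e,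
        show a * (z * u) * a⁻¹ = (a * z * a⁻¹) * (a * u * a⁻¹) by group, hzu] at e2
      right
      rw [show a * u * a⁻¹ = z⁻¹ * (z * (a * u * a⁻¹)) by group, e2, inv_eq_of_mul_eq_one_right h.goodz.sq]
  have hcB : a * b ∈ B Qf z y := mul_mem (h.E_le_B haE) hb
  exact closure_of_centralizers h.goodz (Set.finite_singleton y) (Set.singleton_subset_iff.2 h.memy)
    (h.mem_B.1 hcB).1 fun u hu huy => hcen u (Subgroup.mem_sup_right (h.mem_B.2 ⟨hu, huy y rfl⟩))

theorem R_symm : R Qf y z = R Qf z y := sup_comm _ _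

/-- `Qf z` normalizes the radical. -/
theorem R_conj {q x : G} (hq : q ∈ Qf z) (hx : x ∈ R Qf z y) : q * x * q⁻¹ ∈ R Qf z y := by
  obtain ⟨a, ha, b, hb, rfl⟩ := h.mem_R hx
  obtain ⟨hap, haz⟩ := h.symm.mem_B.1 ha
  obtain ⟨hbq, hby⟩ := h.mem_B.1 hb
  have h1 : q * b * q⁻¹ ∈ B Qf z y := by
    rcases h.goodz.comm q hq b hbq with e | e
    · rw [mul_inv_eq_iff_eq_mul.2 ((comm_iff _ _).1 e)]; exact hb
    · rw [show q * b * q⁻¹ = (q * b * q⁻¹ * b⁻¹) * b by group, e]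
      exact mul_mem (h.E_le_B h.z_mem_E) hb
  have h2 : q * a * q⁻¹ * a⁻¹ ∈ B Qf z y := by
    refine h.mem_B.2 ⟨?_, ?_⟩
    · rw [show q * a * q⁻¹ * a⁻¹ = q * (a * q⁻¹ * a⁻¹) by group]
      exact mul_mem hq (h.goodz.norm a haz _ (inv_mem hq))
    · have hay : Commute a y := h.goody.le a hap
      have hqy : ∀ w, q⁻¹ * (w * y) * q = q⁻¹ * w * q * (q⁻¹ * y * q) := fun w => by group
      rcases h.goodz.comm q hq y h.memy with e | e
      · have c : Commute q y := (comm_iff _ _).1 e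
        exact (((c.mul_left hay).mul_left c.inv_left).mul_left hay.inv_left).eq
      · have e' : q * y * q⁻¹ = z * y := by rw [← e]; group
        have e'' : q⁻¹ * y * q = z * y := by
          have : q⁻¹ * (z * y) * q = y := by rw [← e']; group
          calc q⁻¹ * y * q = q⁻¹ * z * (z * y) * q := by rw [mul_assoc q⁻¹ z (z * y), ← mul_assoc z z y, h.goodz.sq, one_mul]
            _ = z * (q⁻¹ * (z * y) * q) := by
              rw [(Commute.inv_left (show Commute q z from h.goodz.le q hq)).eq]; group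
            _ = _ := by rw [this]
        have hazy : a * (z * y) * a⁻¹ = z * y :=
          mul_inv_eq_iff_eq_mul.2 (Commute.mul_right (show Commute a z from haz) hay).eq
        calc q * a * q⁻¹ * a⁻¹ * y = q * a * (q⁻¹ * y * q) * (q⁻¹ * a⁻¹) := by
              rw [mul_assoc (q * a * q⁻¹) a⁻¹ y, hay.inv_left.eq]; group
          _ = q * (a * (z * y) * a⁻¹) * q⁻¹ * (q * a * q⁻¹ * a⁻¹) := by rw [e'']; group
          _ = (q * (q⁻¹ * y * q) * q⁻¹) * (q * a * q⁻¹ * a⁻¹) := by rw [hazy, e'']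
          _ = _ := by group
  rw [show q * (a * b) * q⁻¹ = (q * a * q⁻¹ * a⁻¹) * a * (q * b * q⁻¹) by group]
  exact mul_mem (mul_mem (Subgroup.mem_sup_right h2) (Subgroup.mem_sup_left ha)) (Subgroup.mem_sup_right h1)

theorem R_isPGroup : IsPGroup 2 ↥(R Qf z y) :=
  IsPGroup.to_sup_of_normal_right' (h.py.to_le inf_le_left) (h.pz.to_le inf_le_left) h.A_le_normalizer

end Pair

/-- The conjugates of `Q` indexed by the conjugates of `z`. -/
def conjFun (Q : Subgroup G) (z : G) : G → Subgroup G := fun x =>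
  ⨆ (g : G) (_ : g * z * g⁻¹ = x), Q.map (MulAut.conj g).toMonoidHom

theorem conjFun_eq {Q : Subgroup G} {z : G} (hn : ∀ c, c * z = z * c → ∀ a ∈ Q, c * a * c⁻¹ ∈ Q) (g : G) :
    conjFun Q z (g * z * g⁻¹) = Q.map (MulAut.conj g).toMonoidHom := by
  refine le_antisymm (iSup₂_le fun k hk => ?_) (le_iSup₂_of_le g rfl le_rfl)
  rintro _ ⟨a, ha, rfl⟩
  have hc : (g⁻¹ * k) * z = z * (g⁻¹ * k) := by
    calc g⁻¹ * k * z = g⁻¹ * (k * z * k⁻¹) * k := by group
      _ = g⁻¹ * (g * z * g⁻¹) * k := by rw [hk]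
      _ = _ := by group
  exact ⟨_, hn _ hc a ha, by simp [mul_assoc]⟩

theorem conjFun_conj (Q : Subgroup G) (z : G) (g x a : G) (ha : a ∈ conjFun Q z x) :
    g * a * g⁻¹ ∈ conjFun Q z (g * x * g⁻¹) := by
  have : (conjFun Q z x).map (MulAut.conj g).toMonoidHom ≤ conjFun Q z (g * x * g⁻¹) := by
    simp only [conjFun, Subgroup.map_iSup]
    refine iSup₂_le fun k hk => le_iSup₂_of_le (g * k) (by rw [← hk]; group) ?_
    rintro _ ⟨_, ⟨b, hb, rfl⟩, rfl⟩
    exact ⟨b, hb, by simp [mul_assoc]⟩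
  exact this ⟨a, ha, rfl⟩

/-- The hypotheses of a large extraspecial subgroup and a conjugate centre inside it give a pair. -/
theorem pair_of [Finite G] (Q : Subgroup G) (hQ : Cfsg.IsLargeExtraspecial Q) (z : G)
    (hz : ((Subgroup.center ↥Q).map Q.subtype) = Subgroup.zpowers z) (hz2 : orderOf z = 2) (g : G)
    (hgH : g ∉ Subgroup.centralizer ({z} : Set G)) (hgQ : g * z * g⁻¹ ∈ Q) :
    Pair (conjFun Q z) z (g * z * g⁻¹) ∧ conjFun Q z z = Q ∧
      conjFun Q z (g * z * g⁻¹) = Q.map (MulAut.conj g).toMonoidHom := by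
  obtain ⟨hE, hC, hN, -⟩ := hQ
  have hC' : Subgroup.centralizer (Q : Set G) ≤ Q := hC.le.trans (Subgroup.map_subtype_le _)
  have hle : ∀ a ∈ Q, a * z = z * a := by
    intro a ha
    obtain ⟨c, hc, e⟩ := (Subgroup.mem_map).1 (hz.symm ▸ Subgroup.mem_zpowers z : z ∈ (Subgroup.center ↥Q).map Q.subtype)
    rw [← e]
    exact congrArg Subtype.val (Subgroup.mem_center_iff.1 hc ⟨a, ha⟩)
  have hnorm : ∀ c, c * z = z * c → ∀ a ∈ Q, c * a * c⁻¹ ∈ Q := by
    intro c hc a ha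
    refine (Subgroup.mem_normalizer_iff.1 (hN ?_) a).1 ha
    rw [hz, Subgroup.mem_centralizer_iff]
    intro u hu
    obtain ⟨n, rfl⟩ := Subgroup.mem_zpowers_iff.1 hu
    exact ((show Commute c z from hc).zpow_right n).eq.symm
  have hgood := Singular.good_of hz2 hE hC' hle hnorm
  have h1 : conjFun Q z z = Q := by
    have := conjFun_eq hnorm (1 : G)
    rw [one_mul, inv_one, mul_one] at this
    rw [this]
    ext a
    simp
  have h2 := conjFun_eq hnorm g
  have conj := conjFun_conj Q z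
  have back : ∀ a ∈ conjFun Q z (g * z * g⁻¹), g⁻¹ * a * g ∈ Q := fun a ha => by
    have := conj g⁻¹ _ a ha
    rw [inv_inv, show g⁻¹ * (g * z * g⁻¹) * g = z by group, h1] at this
    exact this
  have fwd : ∀ a ∈ Q, g * a * g⁻¹ ∈ conjFun Q z (g * z * g⁻¹) := fun a ha => by
    rw [h2]; exact ⟨a, ha, rfl⟩
  have hgy : Singular.Good (conjFun Q z (g * z * g⁻¹)) (g * z * g⁻¹) := by
    refine ⟨?_, ?_, fwd z hgood.mem, ?_, ?_, ?_, ?_, ?_, ?_⟩
    · rw [show g * z * g⁻¹ * (g * z * g⁻¹) = g * (z * z) * g⁻¹ by group, hgood.sq]; group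
    · intro e; exact hgood.ne (conj_eq_one_iff.1 e)
    · intro a ha
      have := congrArg (fun t => g * t * g⁻¹) (hle _ (back a ha))
      simpa [mul_assoc] using this
    · intro c hc a ha
      have hc' : g⁻¹ * c * g * z = z * (g⁻¹ * c * g) := by
        have := congrArg (fun t => g⁻¹ * t * g) hc
        simpa [mul_assoc] using this
      have := fwd _ (hnorm _ hc' _ (back a ha))
      simpa [mul_assoc] using this
    · intro a ha b hb
      rcases hgood.comm _ (back a ha) _ (back b hb) with e | e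
      · left
        have := congrArg (fun t => g * t * g⁻¹) e
        simpa [mul_assoc] using this
      · right
        have := congrArg (fun t => g * t * g⁻¹) e
        simpa [mul_assoc] using this
    · intro a ha
      rcases hgood.sqr _ (back a ha) with e | e
      · left
        have := congrArg (fun t => g * t * g⁻¹) e
        simpa [mul_assoc] using this
      · right
        have := congrArg (fun t => g * t * g⁻¹) e
        simpa [mul_assoc] using this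
    · intro c hc
      have := hgood.cent (g⁻¹ * c * g) fun a ha => by
        have := congrArg (fun t => g⁻¹ * t * g) (hc _ (fwd a ha))
        simpa [mul_assoc] using this
      rcases this with e | e
      · left
        have := congrArg (fun t => g * t * g⁻¹) e
        simpa [mul_assoc] using this
      · right
        have := congrArg (fun t => g * t * g⁻¹) e
        simpa [mul_assoc] using this
    · obtain ⟨v, hv, e1, e2⟩ := hgood.nontriv
      exact ⟨g * v * g⁻¹, fwd v hv, fun e => e1 (conj_eq_one_iff.1 e),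
        fun e => e2 (mul_left_cancel (mul_right_cancel e))⟩
  have hgz : Singular.Good (conjFun Q z z) z := h1.symm ▸ hgood
  have hzy : z ∈ conjFun Q z (g * z * g⁻¹) := Singular.symm (conjFun Q z) conj hgz hgy (h1.symm ▸ hgQ)
  have hcent : ∀ c, (∀ q ∈ conjFun Q z z, c * q = q * c) → c ∈ conjFun Q z z := by
    intro c hc
    rw [h1] at hc ⊢
    exact hC' (Subgroup.mem_centralizer_iff.2 fun a ha => (hc a ha).symm)
  refine ⟨⟨conj, hgz, hgy, ?_, h1.symm ▸ hgQ, hzy, h1.symm ▸ hE.1.1, h2.symm ▸ hE.1.1.map _, hcent, ?_⟩, h1, h2⟩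
  · intro e
    exact hgH (Subgroup.mem_centralizer_singleton_iff.2 (mul_inv_eq_iff_eq_mul.1 e))
  · intro c hc
    rcases hgy.cent c hc with e | e <;> rw [e]
    exacts [one_mem _, hgy.mem]

end Cfsg.Agent.Lib.LargeExtra
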