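import Cfsg.Agent.Lib.LargeExtra.Centralizer
import Cfsg.Agent.S5433

/-! # Simplicity from a large extraspecial subgroup -/

set_option autoImplicit false

namespace Cfsg.Agent.Lib.LargeExtra
open Cfsg

variable {G : Type*} [Group G] [Finite G]

/-- A large extraspecial subgroup whose centralizer of the centre lies in every normal subgroup
containing the centre forces simplicity. -/
theorem isSimpleGroup_of_large {z : G} (hz : orderOf z = 2) {P : Subgroup G} (hQ : IsLargeExtraspecial P)
    (hF : (∀ x, x ∈ (Subgroup.center ↥P).map P.subtype ↔ x = 1 ∨ x = z))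
    (hn : ∀ c, c * z = z * c → ∀ q ∈ P, c * q * c⁻¹ ∈ P)
    (hle : ∀ N : Subgroup G, N.Normal → z ∈ N → Subgroup.centralizer ({z} : Set G) ≤ N) : IsSimpleGroup G := by
  have hZ := hF
  have hC := hQ.2.1
  have hz1 : z ≠ 1 := fun e => by rw [e, orderOf_one] at hz; omega
  haveI : Nontrivial G := ⟨⟨z, 1, hz1⟩⟩
  refine ⟨fun N hNn => ?_⟩
  by_cases hNb : N = ⊥
  · exact Or.inl hNb
  right
  haveI := hNn
  have hzN : z ∈ N := by
    by_contra hzN
    have htriv : ∀ x ∈ N, x * z = z * x → x = 1 := by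
      intro x hx hxz
      have hdis : ∀ a ∈ N, a ∈ P → a = 1 := by
        intro a haN haP
        by_contra ha1
        by_cases hac : ∀ q ∈ P, a * q = q * a
        · rcases (hZ a).1 (hC ▸ Subgroup.mem_centralizer_iff.2 fun q hq => (hac q hq).symm) with e | e
          exacts [ha1 e, hzN (e ▸ haN)]
        · push Not at hac
          obtain ⟨q, hq, hqa⟩ := hac
          have h1 : a * q * a⁻¹ * q⁻¹ ∈ (Subgroup.center ↥P).map P.subtype := by
            refine ⟨⟨a, haP⟩ * ⟨q, hq⟩ * (⟨a, haP⟩ : ↥P)⁻¹ * (⟨q, hq⟩ : ↥P)⁻¹, ?_, rfl⟩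
            rw [← commutatorElement_def, ← hQ.1.1.2.2, commutator_def]
            exact Subgroup.commutator_mem_commutator (Subgroup.mem_top _) (Subgroup.mem_top _)
          rcases (hZ _).1 h1 with e | e
          · exact hqa (commutatorElement_eq_one_iff_mul_comm.1 e)
          · apply hzN
            rw [← e, show a * q * a⁻¹ * q⁻¹ = a * (q * a⁻¹ * q⁻¹) by group]
            exact mul_mem haN (hNn.conj_mem _ (inv_mem haN) q)
      have hcP : ∀ q ∈ P, x * q = q * x := fun q hq => by
        refine commutatorElement_eq_one_iff_mul_comm.1 (hdis _ ?_ ?_)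
        · rw [commutatorElement_def, show x * q * x⁻¹ * q⁻¹ = x * (q * x⁻¹ * q⁻¹) by group]
          exact mul_mem hx (hNn.conj_mem _ (inv_mem hx) q)
        · exact mul_mem (hn x hxz q hq) (inv_mem hq)
      rcases (hZ x).1 (hC ▸ Subgroup.mem_centralizer_iff.2 fun q hq => (hcP q hq).symm) with e | e
      exacts [e, absurd (e ▸ hx) hzN]
    have hodd : Odd (Nat.card ↥N) := by
      rw [← Nat.not_even_iff_odd]
      intro hev
      haveI : Fact (Nat.Prime 2) := ⟨Nat.prime_two⟩
      -- fixed points of conjugation by `z`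
      let Zg := Subgroup.zpowers z
      letI : MulAction ↥Zg ↥N := MulAction.compHom ↥N
        ((MulAut.conjNormal (H := N)).comp Zg.subtype)
      have hp : IsPGroup 2 ↥Zg := IsPGroup.of_card (n := 1) (by rw [Nat.card_zpowers, hz, pow_one])
      obtain ⟨b, hb, hb1⟩ := hp.exists_fixed_point_of_prime_dvd_card_of_fixed_point (↥N) (even_iff_two_dvd.1 hev)
        (a := (1 : ↥N)) (fun u => map_one (MulAut.conjNormal (H := N) (u : G)))
      refine hb1 (Subtype.ext ?_).symm
      refine htriv b b.2 ?_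
      have := congrArg Subtype.val (hb ⟨z, Subgroup.mem_zpowers z⟩)
      have h2 : z * (b : G) * z⁻¹ = b := this
      exact (mul_inv_eq_iff_eq_mul.1 h2).symm
    exact hNb (hQ.2.2.2 N hodd (fun q _ => Subgroup.mem_normalizer_iff.2 fun a =>
      ⟨fun ha => hNn.conj_mem a ha q, fun ha => by simpa [mul_assoc] using hNn.conj_mem _ ha q⁻¹⟩))
  have hHN := hle N hNn hzN
  have hPN : P ≤ N := fun q hq => hHN (Subgroup.mem_centralizer_singleton_iff.2 (by
    have hz' : z ∈ Subgroup.centralizer (P : Set G) := hC ▸ (hZ z).2 (Or.inr rfl)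
    exact Subgroup.mem_centralizer_iff.1 hz' q hq))
  have hsup := Cfsg.Agent.S5433.result P hQ N hPN
  rw [← hsup]
  refine (sup_eq_left.2 ?_).symm
  intro a ha
  apply hHN
  have h1 : a * z * a⁻¹ ∈ (Subgroup.center ↥P).map P.subtype := by
    rw [← hC, Subgroup.mem_centralizer_iff]
    intro q hq
    have hq' : a⁻¹ * q * a ∈ P := by
      simpa using (Subgroup.mem_normalizer_iff.1 (inv_mem ha) q).1 hq
    have hz' : z ∈ Subgroup.centralizer (P : Set G) := hC ▸ (hZ z).2 (Or.inr rfl)
    have := Subgroup.mem_centralizer_iff.1 hz' _ hq'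
    calc q * (a * z * a⁻¹) = a * ((a⁻¹ * q * a) * z) * a⁻¹ := by group
      _ = a * (z * (a⁻¹ * q * a)) * a⁻¹ := by rw [this]
      _ = _ := by group
  rcases (hZ _).1 h1 with e | e
  · exact absurd (conj_eq_one_iff.1 e) hz1
  · exact Subgroup.mem_centralizer_singleton_iff.2 (mul_inv_eq_iff_eq_mul.1 e)


end Cfsg.Agent.Lib.LargeExtra
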