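import Cfsg.Agent.Lib.Thompson.ExtraspecialBasis
import Cfsg.Agent.Lib.LargeExtra.Centralizer
import Cfsg.Agent.Lib.LocalP2.HSubgroup
import Cfsg.Agent.Lib.Hall.Basic
import Cfsg.Agent.S5422

/-! # Width of extraspecial groups, and largeness from a conjugate centre -/

set_option autoImplicit false

namespace Cfsg.Agent.Lib.LargeExtra
open Cfsg

theorem exists_width {E : Type*} [Group E] [Finite E] (h : IsExtraspecial 2 E) :
    ∃ w, Nat.card E = 2 ^ (2 * w + 1) := by
  haveI : Fact (Nat.Prime 2) := ⟨Nat.prime_two⟩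
  obtain ⟨z, d⟩ := Thompson.Extra.exists_data h
  rcases Thompson.Extra.two_types d with ⟨k, a, b, hP, hC, -⟩ | ⟨k, a, b, hP, hC, -⟩
  · exact ⟨k, Thompson.Extra.card_cons_le d hP hC⟩
  · exact ⟨k + 1, Thompson.Extra.card_cons_le d hP hC⟩

variable {G : Type*} [Group G] [Finite G]

theorem large_of_conj {Q : Subgroup G} (hE : IsExtraspecial 2 ↥Q)
    (hC : Subgroup.centralizer (Q : Set G) = (Subgroup.center ↥Q).map Q.subtype)
    (hN : Subgroup.centralizer (((Subgroup.center ↥Q).map Q.subtype : Subgroup G) : Set G) ≤ Subgroup.normalizer (Q : Set G))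
    (h32 : 32 ≤ Nat.card ↥Q) {z : G} (hZ : ∀ x, x ∈ (Subgroup.center ↥Q).map Q.subtype ↔ x = 1 ∨ x = z)
    (hz1 : z ≠ 1) {g : G} (hgQ : g * z * g⁻¹ ∈ Q) (hgz : g * z * g⁻¹ ≠ z) : IsLargeExtraspecial Q := by
  obtain ⟨w, hw⟩ := exists_width hE
  have h2 : 2 ≤ w := by
    by_contra hlt
    have := Nat.pow_le_pow_right (n := 2) two_pos (show 2 * w + 1 ≤ 3 by omega)
    omega
  obtain ⟨h1, h3⟩ := good_conj_centre hZ hz1 hgQ hgz
  exact (Cfsg.Agent.S5422.result Q hE hC hN w h2 hw g h1 h3).2.2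

/-- A group of twice odd order with a central involution. -/
theorem oddCore_or {H : Type*} [Group H] [Finite H] {z : H} (hz : orderOf z = 2) (hzc : ∀ a, a * z = z * a)
    (h4 : ¬ 4 ∣ Nat.card H) (x : H) : x ∈ oddCore H ∨ z * x ∈ oddCore H := by
  haveI : Fact (Nat.Prime 2) := ⟨Nat.prime_two⟩
  obtain ⟨P, hP⟩ := (IsPGroup.of_card (n := 1) (by rw [Nat.card_zpowers, hz, pow_one]) :
    IsPGroup 2 ↥(Subgroup.zpowers z)).exists_le_sylow
  have hcard : Nat.card (P : Subgroup H) = 2 := by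
    obtain ⟨k, hk⟩ := IsPGroup.iff_card.1 P.2
    have h2 : 2 ∣ Nat.card (P : Subgroup H) := by
      have h := Subgroup.card_dvd_of_le hP
      rwa [Nat.card_zpowers, hz] at h
    rcases k with _ | _ | k
    · rw [hk] at h2; norm_num at h2
    · exact hk
    · exfalso
      apply h4
      refine dvd_trans ?_ (Subgroup.card_subgroup_dvd_card (P : Subgroup H))
      rw [hk]
      exact ⟨2 ^ k, by ring⟩
  haveI : IsCyclic (P : Subgroup H) := isCyclic_of_prime_card hcard
  obtain ⟨P', N, hN, hc⟩ := LocalP2.hasNormalPComplement_of_cyclic_smallest P fun q hq _ => hq.two_le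
  haveI := hN
  have hNodd : (Nat.card ↥N).Coprime 2 := by
    have hi : (P' : Subgroup H).index = Nat.card ↥N := hc.index_eq_card
    rw [← hi]
    exact (Nat.prime_two.coprime_iff_not_dvd.2 P'.not_dvd_index).symm
  have hle : N ≤ oddCore H := Hall.le_pPrimeCore hNodd
  obtain ⟨⟨n, p⟩, hnp, -⟩ := Subgroup.isComplement_iff_existsUnique.1 hc x
  have hnp : (n : H) * (p : H) = x := hnp
  have hzP' : z ∈ (P' : Subgroup H) := by
    obtain ⟨c, hc'⟩ := MulAction.exists_smul_eq H P P'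
    have : MulAut.conj c • z ∈ ((c • P : Sylow 2 H) : Subgroup H) :=
      Subgroup.smul_mem_pointwise_smul _ _ _ (hP (Subgroup.mem_zpowers z))
    rw [hc'] at this
    simpa [hzc c] using this
  have hcard' : Nat.card (P' : Subgroup H) = 2 := by
    rw [Sylow.card_eq_multiplicity, ← Sylow.card_eq_multiplicity P, hcard]
  have hz1 : z ≠ 1 := fun e => by rw [e, orderOf_one] at hz; omega
  obtain ⟨u, hu, huu⟩ := (Nat.card_eq_two_iff' (1 : ↥(P' : Subgroup H))).1 hcard'
  by_cases hp1 : (p : H) = 1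
  · left
    rw [← hnp, hp1, mul_one]
    exact hle n.2
  · right
    have e : (p : H) = z := congrArg Subtype.val
      ((huu p fun q => hp1 (congrArg Subtype.val q)).trans (huu ⟨z, hzP'⟩ fun q => hz1 (congrArg Subtype.val q)).symm)
    have hzz : z * z = 1 := by rw [← pow_two, ← hz, pow_orderOf_eq_one]
    rw [← hnp, e, hzc n, ← mul_assoc, hzz, one_mul]
    exact hle n.2

end Cfsg.Agent.Lib.LargeExtra
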